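import Cfsg.Agent.H265.Meet.Mathieu

/-!
# Trivial intersections of Sylow 2-subgroups: the stabiliser of a duad in `M24` (helper265, for helper935)
-/

set_option autoImplicit false

namespace Cfsg.Agent.H265.MeetM

open Cfsg Cfsg.Agent.SporadicA.GolayBase Cfsg.Agent.SporadicA.GolayPerm Cfsg.Agent.SporadicStructure.M24El
  Cfsg.Agent.SporadicA.PermTab Cfsg.Agent.H265.MeetT Cfsg.Agent.H68.MeetB

/-- tables of a Sylow 2-subgroup of the duad stabiliser -/
def TD2 : List ℕ := [0x2e014020060260480880901e028068080040380800c0060500b01500e02c00800,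
  0x2e0100280e0260480880201e05006807012018058030180280a81601004000800,
  0x2e0580a8060260040880b01a02807807020038010030180500280401002409000,
  0x280a0040220480980301e058068020180140380b0200540700601202000817,
  0x2e0280a0150260480880801e0140680900e058060100160100700600400c00800,
  0x2e0140a80e02203c0980300201809009010050038100040280b00401603006800,
  0x30018020220040980a01a040078050280240701602a02c0400700801809017,
  0x2e0300380b0220040980501e0400680a02a0240b00e0280080400300c01009000]

def PD2 : List ℕ := [0xb94869ca297a9a813a0c1d2d53ac20,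
  0xb90ae9ca227d1a74996362ab644020,
  0xbdaa69862b6a9e783843650a442640,
  0x2a848ca637d9a2614eb855c64a037,
  0xbaa959ca28795a93d990591c610c20,
  0xb96ae8be6309a49450f012ac45b1a0,
  0x30628866a6c1e5a25d6aad0721a57,
  0xbb0eb886657c1aaaa6cea090331240]

def xD2 : ℕ := 0x2e0200080901a02c0500f02004c0901502c0100280201801c030030220380a000

def yD2 : ℕ := 0xba0296ad4f84e55b10a261cc38ba80

def cD2 : List (List ℕ) := [[0], [0, 1], [0, 1, 2], [1, 1, 2, 5], [0, 1, 2, 5, 9], [4, 1, 3, 4, 10, 18], [1, 1, 2, 6, 11, 16, 50], [16, 1, 3, 6, 11, 16, 52, 81]]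

def tD2 : List Test := [
  ⟨14, 15, 21, 1009, 0xa1e000014000a1e000000000a0a000a0a000a1e800a0a800a1e800a0a000a1e000a1e000a1e800a1e000a1e80001400001680001680001680001680001680000280000280000280000280000280000280000000000000000000000000000000000000000000000000000000050500050500050500000000000000⟩,
  ⟨2, 20, 9, 1009, 0x900009900520470100021110c100010081024085040c1106670043440107c000040408a4021c860418e4cc008c46094c2e04020401000001100000606c1482040de6c010100000060000042000c6fc121000131048000000280c2469c4865a8c4000817460152441005008a80000a84198d4024910706bdc020080010200⟩]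

/-- the check for the stabiliser of the duad `{0, 23}` -/
def chkD (P : ℕ) : Bool := ok P && ((papp P 0 == 0 && papp P 23 == 23) || (papp P 0 == 23 && papp P 23 == 0))

/-- **the stabiliser of a duad in `M24`** -/
theorem meetIn_duad {K : Subgroup (Equiv.Perm GolayPt)}
    (h : ∀ P, chkD P = true → ∃ hP : isPerm P = true, permOf P hP ∈ K) (hcard : ¬ 2 ^ 9 ∣ Nat.card K) : MeetIn 2 K :=
  meetIn_golay h PD2 TD2 xD2 yD2 (by decide +kernel) (by decide +kernel) 256 (by decide +kernel) cD2 tD2
    (by decide +kernel) (by decide +kernel) (by decide +kernel) (by decide +kernel) hcard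

end Cfsg.Agent.H265.MeetM
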